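import Cfsg.Prelude.Def_SporadicB

/-! Elements of order four in `SL₂(q)` and in double covers of `A₇`. -/

set_option autoImplicit false

namespace Cfsg.Lib.ClsI

open Subgroup Matrix
open scoped MatrixGroups

/-- The centre has exponent two and square roots of a central involution are conjugate up to inversion. -/
def Ty (H : Type*) [Group H] : Prop :=
  (∀ c ∈ center H, c * c = 1) ∧ ∀ a b : H, a * a ∈ center H → a * a ≠ 1 → b * b = a * a →
    ∃ c, c * a * c⁻¹ = b ∨ c * a * c⁻¹ = b⁻¹

theorem Ty.of_equiv {H H' : Type*} [Group H] [Group H'] (h : Ty H') (e : H ≃* H') : Ty H := by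
  have hc : ∀ c, c ∈ center H → e c ∈ center H' := fun c hc => mem_center_iff.2 fun g => by
    obtain ⟨g, rfl⟩ := e.surjective g
    rw [← map_mul, ← map_mul, mem_center_iff.1 hc g]
  refine ⟨fun c h1 => e.injective (by rw [map_mul, h.1 _ (hc c h1), map_one]), fun a b h1 h2 h3 => ?_⟩
  obtain ⟨c, hc⟩ := h.2 (e a) (e b) (by rw [← map_mul]; exact hc _ h1)
    (by rw [← map_mul]; exact fun e' => h2 (e.injective (by rw [e', map_one])))
    (by rw [← map_mul, ← map_mul, h3])
  obtain ⟨c, rfl⟩ := e.surjective c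
  refine ⟨c, hc.imp (fun h => e.injective ?_) fun h => e.injective ?_⟩ <;> simpa using h

section SL
variable {F : Type*} [Field F] [Fintype F]

theorem sq_add_sq (h : Odd (Fintype.card F)) (r : F) : ∃ X Y : F, X ^ 2 + Y ^ 2 = r := by
  open Polynomial in
  obtain ⟨a, b, e⟩ := FiniteField.exists_root_sum_quadratic (f := (X ^ 2 : F[X]))
    (g := X ^ 2 - C r) (degree_X_pow 2) (degree_X_pow_sub_C (by decide) r) (Nat.odd_iff.1 h)
  refine ⟨a, b, ?_⟩
  simp only [Polynomial.eval_pow, Polynomial.eval_X, Polynomial.eval_sub, Polynomial.eval_C] at e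
  linear_combination e

theorem two_ne (h : Odd (Fintype.card F)) : (2 : F) ≠ 0 :=
  Ring.two_ne_zero fun e => by
    have := FiniteField.even_card_of_char_two e
    have := Nat.odd_iff.1 h
    omega

/-- The standard element of order four. -/
def std (F : Type*) [Field F] : SL(2, F) := ⟨!![0, -1; 1, 0], by simp [det_fin_two]⟩

theorem conj_std (h : Odd (Fintype.card F)) (a : SL(2, F)) (ha : a * a = -1) :
    ∃ P : SL(2, F), a * P = P * std F := by
  have hd := a.det_coe
  rw [det_fin_two] at hd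
  have e := fun i j => congrFun (congrFun (congrArg Subtype.val ha) i) j
  have e00 := e 0 0
  have e01 := e 0 1
  have e10 := e 1 0
  have e11 := e 1 1
  simp [Matrix.mul_apply, Fin.sum_univ_two] at e00 e01 e10 e11
  set p := a.1 0 0 with hp
  set q := a.1 0 1 with hq
  set r := a.1 1 0 with hr
  set s := a.1 1 1 with hs
  have ht : s = -p := by
    have : (p + s) * (p * s - q * r) = 0 := by linear_combination s * e00 + s * hd - r * e01
    rw [hd, mul_one] at this
    linear_combination this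
  have hv : ∃ v w : F, r * v ^ 2 - 2 * p * v * w - q * w ^ 2 = 1 := by
    by_cases h0 : r = 0
    · have hp0 : p ≠ 0 := fun h1 => by rw [h0, h1] at e00; simp at e00
      have h2 := two_ne h
      exact ⟨-(1 + q) / (2 * p), 1, by rw [h0]; field_simp; ring⟩
    · obtain ⟨X, Y, e⟩ := sq_add_sq h r
      refine ⟨(X + p * Y) / r, Y, ?_⟩
      field_simp
      linear_combination e - Y ^ 2 * e00
  obtain ⟨v, w, hv⟩ := hv
  refine ⟨⟨!![v, p * v + q * w; w, r * v - p * w], by rw [det_fin_two_of]; linear_combination hv⟩, ?_⟩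
  apply Subtype.ext
  change a.1 * !![v, p * v + q * w; w, r * v - p * w] =
    !![v, p * v + q * w; w, r * v - p * w] * !![0, -1; 1, 0]
  rw [Matrix.eta_fin_two a.1, ← hp, ← hq, ← hr, ← hs, ht]
  ext i j
  fin_cases i <;> fin_cases j <;> simp [Matrix.mul_apply, Fin.sum_univ_two]
  · linear_combination v * e00
  · ring
  · linear_combination w * e00

theorem ty_sl (h : Odd (Fintype.card F)) : Ty SL(2, F) := by
  have hc : ∀ c ∈ center SL(2, F), c = 1 ∨ c = -1 := fun c hc => by
    obtain ⟨r, h1, h2⟩ := Matrix.SpecialLinearGroup.mem_center_iff.1 hc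
    rw [Fintype.card_fin, sq_eq_one_iff] at h1
    refine h1.imp (fun e => Subtype.ext ?_) fun e => Subtype.ext ?_ <;> rw [← h2, e]
    · simp
    · rw [map_neg, map_one]; rfl
  refine ⟨fun c h1 => by rcases hc c h1 with rfl | rfl <;> simp, fun a b h1 h2 h3 => ?_⟩
  have ha := (hc _ h1).resolve_left h2
  obtain ⟨P, hP⟩ := conj_std h a ha
  obtain ⟨Q, hQ⟩ := conj_std h b (h3.trans ha)
  refine ⟨Q * P⁻¹, Or.inl ?_⟩
  have e1 := eq_mul_inv_of_mul_eq hP
  have e2 := eq_mul_inv_of_mul_eq hQ
  clear hP hQ h1 h2 h3 ha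
  subst e1 e2
  group

end SL

theorem conj_a7 {x y : alternatingGroup (Fin 7)} (hx : x * x = 1) (hx1 : x ≠ 1) (hy : y * y = 1)
    (hy1 : y ≠ 1) : IsConj x y := by
  have key : ∀ x : alternatingGroup (Fin 7), x * x = 1 → x ≠ 1 → x.1.cycleType = {2, 2} := by
    intro x h1 h2
    have ho : orderOf x.1 = 2 := by
      rw [orderOf_coe]; exact orderOf_eq_prime (by rw [sq, h1]) h2
    obtain ⟨n, hn⟩ := Equiv.Perm.cycleType_prime_order (σ := x.1) (by rw [ho]; exact Nat.prime_two)
    rw [ho] at hn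
    have h3 := Equiv.Perm.sum_cycleType_le x.1
    have h4 := Equiv.Perm.sign_of_cycleType x.1
    rw [Equiv.Perm.mem_alternatingGroup.1 x.2] at h4
    rw [hn] at h3 h4 ⊢
    simp only [Multiset.sum_replicate, Multiset.card_replicate, smul_eq_mul, Fintype.card_fin] at h3 h4
    obtain rfl | rfl | rfl : n = 0 ∨ n = 1 ∨ n = 2 := by omega
    · exact absurd h4 (by decide)
    · rfl
    · exact absurd h4 (by decide)
  refine alternatingGroup.isConj_of (Equiv.Perm.isConj_iff_cycleType_eq.2
    ((key x hx hx1).trans (key y hy hy1).symm)) ?_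
  rw [← Equiv.Perm.sum_cycleType, key x hx hx1]
  decide

theorem ty_a7 {H : Type*} [Group H] (h : IsNonsplitDoubleCover H (alternatingGroup (Fin 7))) : Ty H := by
  obtain ⟨h2, ⟨e⟩, -⟩ := h
  have : Finite (center H) := Nat.finite_of_card_ne_zero (by rw [h2]; decide)
  have hc : ∀ c ∈ center H, c * c = 1 := fun c hc => by
    have := pow_card_eq_one' (x := (⟨c, hc⟩ : center H))
    rw [h2, sq] at this
    exact congrArg Subtype.val this
  have hu : ∀ c ∈ center H, ∀ d ∈ center H, d ≠ 1 → c = 1 ∨ c = d := fun c hc d hd h1 => by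
    obtain ⟨u, -, hu⟩ := (Nat.card_eq_two_iff' (1 : center H)).1 h2
    by_cases h3 : c = 1
    · exact Or.inl h3
    · exact Or.inr (congrArg Subtype.val ((hu ⟨c, hc⟩ fun e => h3 (congrArg Subtype.val e)).trans
        (hu ⟨d, hd⟩ fun e => h1 (congrArg Subtype.val e)).symm))
  refine ⟨hc, fun a b h1 h3 h4 => ?_⟩
  let f := e.toMonoidHom.comp (QuotientGroup.mk' (center H))
  have hf : ∀ x, f x = 1 ↔ x ∈ center H := fun x => by
    simp [f]
  have hs : Function.Surjective f := e.surjective.comp (QuotientGroup.mk'_surjective _)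
  obtain ⟨c, hc'⟩ := isConj_iff.1 (conj_a7 (x := f a) (y := f b) (by rw [← map_mul, hf]; exact h1)
    (fun e => h3 (hc a ((hf a).1 e))) (by rw [← map_mul, hf, h4]; exact h1)
    (fun e => h3 (h4 ▸ hc b ((hf b).1 e))))
  obtain ⟨c, rfl⟩ := hs c
  have h5 : c * a * c⁻¹ * b⁻¹ ∈ center H := by
    rw [← hf, map_mul, map_mul, map_mul, map_inv, map_inv, hc', mul_inv_cancel]
  refine ⟨c, (hu _ h5 _ h1 h3).imp (fun e => mul_inv_eq_one.1 e) fun e => ?_⟩
  rw [mul_inv_eq_iff_eq_mul.1 e, ← h4, eq_inv_iff_mul_eq_one]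
  have := hc _ h1
  rw [← h4] at this
  simpa only [mul_assoc] using this

end Cfsg.Lib.ClsI
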