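import Cfsg.Agent.Lib.ClsI.A
import Cfsg.Agent.Lib.CT.Base
import Cfsg.Agent.Lib.Comp.PumpP
import Cfsg.Agent.Lib.Comp.PumpTwo

/-! Tools for 2-components with a unique involution. -/

set_option autoImplicit false
set_option linter.unusedSectionVars false

namespace Cfsg.Lib.ClsI

open Subgroup Cfsg.Lib.BG Cfsg.Lib.Core Cfsg.Lib.Comp Cfsg.Lib.GW Cfsg.Lib.CT
open scoped Cfsg.Lib.Transfer commutatorElement

variable {G : Type*} [Group G] [Finite G] {H I J K N P R T : Subgroup G} {a b g j s t u x y z : G}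

theorem syl_sn (hT : Syl 2 T H) (h : SubnormalIn K H) : Syl 2 (T ⊓ K) K :=
  Syl.mk' inf_le_right hT.pgroup.to_inf_left (by
    rw [inf_relIndex_right]; exact h.not_dvd_relIndex hT.not_dvd')

theorem cf (h : PCmp 2 J H) (hP : IsPGroup 2 P) (ha : a ∈ J) (hb : b ∈ DD 2 H J) (haP : a ∈ P)
    (hbP : b ∈ P) : a * b = b * a := by
  have h1 : a * b * a⁻¹ * b⁻¹ = 1 := tw_eq_one (tw_of_mem hP (mul_mem (mul_mem (mul_mem haP hbP)
    (inv_mem haP)) (inv_mem hbP))) (odd_of_mem_Od (DD_comm h.le (comm_mem_comm ha hb)))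
  rw [mul_inv_eq_one, mul_inv_eq_iff_eq_mul] at h1
  exact h1

theorem exists_pcmp_quo (hN : PiGrp {2}ᶜ N) (hH : H ≤ 𝐍(N)) {Kb : Subgroup (QG N)}
    (h : Cmp Kb (quo H N)) :
    ∃ I, PCmp 2 I H ∧ ∀ u (hu : u ∈ H), Tw u → qhom N ⟨u, hH hu⟩ ∈ Kb → u ∈ I := by
  obtain ⟨K, -, ⟨h1, h2⟩, h3⟩ := exists_minimal_le_of_wellFoundedLT (fun K : Subgroup G =>
    SubnormalIn K H ∧ BG.quo K N = Kb) (copre _ Kb ⊓ H) ⟨by
      have := (h.sn.comap (qhom _)).map (Subgroup.subtype _)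
      rw [← subOf_copre, ← subOf_copre, copre_quo hH, subOf_map (sup_le (le_norm N) hH),
        subOf_map (copre_le_norm _)] at this
      exact this.inf_of_le le_sup_right, by
      rw [quo_inf_of_le_left (le_copre _), quo_copre, inf_eq_left.2 h.le]⟩
  have hK := h1.le.trans hH
  refine ⟨K, ⟨h1, le_antisymm (der_le K) (h3 ⟨(sn_of_nml (Nml.der_self K)).trans h1, by
    rw [quo_comm hK hK, h2, h.perf]⟩ (der_le K)), fun e => qs_not_odd h.qs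
      (h2 ▸ e.quo _), fun M hM => ?_⟩, fun u hu hT hq => ?_⟩
  · refine (qs_eq_or_le_centralizer h.qs (h2 ▸ quo_mono hM.le _) (h2 ▸ quo_norm hM.norm _)).imp
      (fun e => le_antisymm hM.le (h3 ⟨(sn_of_nml hM).trans h1, e⟩ hM.le)) fun e => ?_
    exact (le_inf ((quo_le_cent_iff hK (hM.le.trans hK)).1 (h2 ▸ cent_symm e))
      (comm_le_of_le le_rfl hM.le)).trans
      (pcore_max (hN.of_le inf_le_left) ⟨inf_le_right, norm_inf hK (le_norm K)⟩)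
  · have h4 : u ∈ (N ⊔ K) ⊓ H := ⟨copre_quo hK ▸ mem_copre.2 ⟨hH hu, h2 ▸ hq⟩, hu⟩
    rw [modular_right h1.le hK, sup_comm] at h4
    exact zpowers_le.1 (sn_le_of_le_sup (h1.mono le_sup_left (sup_le h1.le inf_le_right))
      (norm_inf hK (le_norm_of_le h1.le)) (hN.of_le inf_le_left) hT (zpowers_le.2 h4))

theorem cov (h : PCmp 2 J H) (ht : t ∈ DD 2 H J) (h2 : t * t = 1) :
    ∃ I, PCmp 2 I (H ⊓ 𝐂[t]) ∧ ∀ j ∈ J, Tw j → j ∈ 𝐂[t] → j ∈ I := by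
  have hH : H ≤ 𝐍(Od H) := (Od_nml H).norm
  have htH : t ∈ H := DD_le ht
  have h1 : quo J (Od H) ≤ 𝐂[qhom (Od H) ⟨t, hH htH⟩] := by
    rw [← cent_zpowers, ← quo_zpow]
    exact (quo_le_cent_iff h.norm_core (zpowers_le.2 (hH htH))).2
      ((le_DD h.le).1 (zpowers_le.2 ht)).2
  have h3 := h.quo_cmp.mono (le_inf h.quo_cmp.le h1) inf_le_left
  rw [← quo_inf_cent1 htH (tw_inv2 h2)] at h3
  obtain ⟨I, hI, h4⟩ := exists_pcmp_quo (pcore_pi _ H) (inf_le_left.trans hH) h3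
  exact ⟨I, hI, fun j hj hT hc => h4 j ⟨h.le hj, hc⟩ hT (qhom_mem_quo _ hj)⟩

theorem diag (h : PCmp 2 J H) (ht : t ∈ H) (h2 : t * t = 1) (hn : t ∉ 𝐍(J)) :
    ∃ I, PCmp 2 I (H ⊓ 𝐂[t]) ∧ ∀ j ∈ J, Tw j → j * (t * j * t⁻¹) = (t * j * t⁻¹) * j →
      j * (t * j * t⁻¹) ∈ I := by
  have hH : H ≤ 𝐍(Od H) := (Od_nml H).norm
  have hq := h.quo_cmp
  have hx : qhom (Od H) ⟨t, hH ht⟩ ∈ 𝐍(quo H (Od H)) := le_norm _ (qhom_mem_quo _ ht)
  have hc : Cyc 2 (qhom (Od H) ⟨t, hH ht⟩) (quo J (Od H)) := hq.cyc hx (by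
    rw [sq, ← map_mul, show (⟨t, hH ht⟩ * ⟨t, hH ht⟩ : 𝐍(Od H)) = 1 from Subtype.ext h2, map_one]
    exact one_mem _) fun e => hn (by
      rw [← Transfer.conj_eq_self_iff, ← quo_conj] at e
      exact Transfer.conj_eq_self_iff.1 ((h.conj_mem ht).eq_of_quo_eq h e))
  have h3 : Cmp hc.diag.range (quo H (Od H) ⊓ 𝐂[qhom (Od H) ⟨t, hH ht⟩]) := by
    refine ⟨SubnormalIn.head (le_inf hc.range_le_ncl hc.range_cent)
      (norm_of_comm_le_of_le hc.der_le_range (le_inf hc.range_le_ncl hc.range_cent)) ?_,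
      hc.range_qs hq.qs⟩
    exact ((sn_of_nml ⟨hq.ncl_le_layer (zpowers_le.2 hx), hq.layer_norm_ncl (zpowers_le.2 hx)⟩).trans
      (sn_of_nml (layer_nml _))).inf_right _
  rw [← quo_inf_cent1 ht (tw_inv2 h2)] at h3
  obtain ⟨I, hI, h4⟩ := exists_pcmp_quo (pcore_pi _ H) (inf_le_left.trans hH) h3
  refine ⟨I, hI, fun j hj hT hc' => h4 _ ⟨mul_mem (h.le hj) (conj_mem_of_norm (le_norm H ht) (h.le hj)),
    mem_cent1.2 ?_⟩ (tw_mul hT (tw_conj hT t) hc') ⟨⟨_, qhom_mem_quo (hH (h.le hj)) hj⟩, ?_⟩⟩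
  · have e : t⁻¹ = t := inv_eq_of_mul_eq_one_right h2
    calc j * (t * j * t⁻¹) * t = (t * t) * j * t * j := by rw [h2]; group
      _ = t * ((t * j * t⁻¹) * j) := by rw [e]; group
      _ = _ := by rw [← hc']
  · rw [hc.diag_two, ← map_inv, ← map_mul, ← map_mul, ← map_mul]
    rfl

theorem pu (h : PCmp 2 I (H ⊓ 𝐂[x])) (hx : x ∈ H) (h2 : orderOf x = 2) (hK : PCmp 2 K H)
    (hn : x ∈ 𝐍(K)) : I ≤ K ∨ I ≤ DD 2 H K := by
  by_cases h1 : I ≤ DD 2 H K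
  · exact Or.inr h1
  obtain ⟨J, hJ, h3 | h3⟩ := h.pump hx (sq_eq_one h2) (h.le_pLayer.trans (l_bal_inv h2 hx))
  · by_cases e : K = J
    · exact Or.inl (e ▸ h3.1)
    · exact absurd (h3.1.trans (hK.le_DD_of_ne hJ e)) h1
  · obtain ⟨k, -, e⟩ := h3.exists_conj_eq hK h1
    refine absurd ?_ h3.nn
    have : J = K := by
      rw [← conj_eq_of_norm (inv_mem (pow_mem hn k)), e, Transfer.inv_conj_conj]
    exact this ▸ hn

theorem zc (h : PCmp 2 J H) (ht : t ∈ H) (hn : t ∈ 𝐍(J)) (h2 : orderOf t = 2)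
    (hu : ∀ s ∈ J, s * s = 1 → s = 1 ∨ s = z) (hD : t ∉ DD 2 H J) :
    ∃ g ∈ J, g * t * g⁻¹ = z * t := by
  by_contra hne
  push Not at hne
  have t2 : t * t = 1 := by rw [← sq]; exact sq_eq_one h2
  have hY : t ∈ J ⊔ zpowers t := mem_sup_right (mem_zpowers t)
  have hiso : IsIsolatedInvolution (⟨t, hY⟩ : ↥(J ⊔ zpowers t)) := by
    refine ⟨by rw [← orderOf_coe]; exact h2, fun g hc => Subtype.ext ?_⟩
    obtain ⟨l, hl, w, hw, e⟩ := (mem_sup_left_norm (zpowers_le.2 hn)).1 g.2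
    have hc' : Commute t (g * t * (g : G)⁻¹) := congrArg Subtype.val hc
    have e' : (g : G) * t * (g : G)⁻¹ = l * t * l⁻¹ := by
      obtain ⟨k, rfl⟩ := hw
      rw [← e]; simp only; group
    rw [e'] at hc'
    refine e'.trans ?_
    have h1 : l * t * l⁻¹ * t⁻¹ ∈ J := by
      simpa only [mul_assoc] using mul_mem hl (conj_mem_of_norm hn (inv_mem hl))
    rcases hu _ h1 (by
      calc l * t * l⁻¹ * t⁻¹ * (l * t * l⁻¹ * t⁻¹) = l * t * l⁻¹ * (t⁻¹ * (l * t * l⁻¹)) * t⁻¹ := by group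
        _ = l * (t * t) * l⁻¹ * (t * t)⁻¹ := by rw [hc'.inv_left.eq]; group
        _ = 1 := by rw [t2]; group) with h3 | h3
    · exact mul_inv_eq_one.1 h3
    · exact absurd (mul_inv_eq_iff_eq_mul.1 h3) (hne l hl)
  refine hD (zpowers_le.1 ((le_DD h.le).2 ⟨zpowers_le.2 ht, le_trans ?_ h.core_le⟩))
  refine comm_le_iff.2 fun a ha b hb => ?_
  rcases (mem_zp2 t2).1 hb with rfl | rfl
  · simp
  have h1 := ZStar.zstar hiso ⟨a, mem_sup_left ha⟩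
  have h3 : b * a * b⁻¹ * a⁻¹ ∈ Od (J ⊔ zpowers b) ⊓ J :=
    ⟨by rw [Od, pcore_p'_eq]; exact ⟨_, h1, rfl⟩, J.mul_mem (conj_mem_of_norm hn ha) (J.inv_mem ha)⟩
  simpa only [mul_inv_rev, inv_inv, mul_assoc] using Subgroup.inv_mem _ (pcore_inf_le le_sup_left h3)

theorem pw (hP : IsPGroup 2 P) (hR : R ≤ P) (ht : t ∈ P) (hn : t ∈ 𝐍(R)) (t2 : t * t = 1)
    (hu : ∀ s ∈ R, s * s = 1 → s = 1 ∨ s = z) (hc : ¬ R ≤ 𝐂[t]) :
    ∃ w ∈ R, w * t * w⁻¹ = z * t := by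
  have hM : R ⊔ zpowers t ≤ P := sup_le hR (zpowers_le.2 ht)
  have h1 : (R ⊔ zpowers t) ⊓ 𝐂[t] < R ⊔ zpowers t :=
    inf_lt_left.2 fun e => hc (le_sup_left.trans e)
  obtain ⟨m, ⟨hm, hmn⟩, hm'⟩ := SetLike.exists_of_lt (nil_norm_grow (pgroup_nil (pgroup_of_le hP hM)) h1)
  obtain ⟨w, hw, s, hs, rfl⟩ := (mem_sup_left_norm (zpowers_le.2 hn)).1 hm
  have hsA : s ∈ (R ⊔ zpowers t) ⊓ 𝐂[t] := ⟨mem_sup_right hs, zpowers_le.2 (self_mem_cent1 t) hs⟩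
  have h2 : w ∈ 𝐍((R ⊔ zpowers t) ⊓ 𝐂[t]) := by
    simpa using Subgroup.mul_mem _ hmn (Subgroup.inv_mem _ (le_norm _ hsA))
  have h3 := mem_cent1.1 (conj_mem_of_norm h2 ⟨mem_sup_right (mem_zpowers t), self_mem_cent1 t⟩).2
  have h4 : w * t * w⁻¹ * t⁻¹ ∈ R := by
    simpa only [mul_assoc] using mul_mem hw (conj_mem_of_norm hn (inv_mem hw))
  rcases hu _ h4 (by
      calc w * t * w⁻¹ * t⁻¹ * (w * t * w⁻¹ * t⁻¹) =
          w * t * w⁻¹ * t⁻¹ * (w * t * w⁻¹ * t) * (t * t)⁻¹ := by group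
        _ = w * (t * t) * w⁻¹ * (t * t)⁻¹ := by rw [h3]; group
        _ = 1 := by rw [t2]; group) with h5 | h5
  · exact absurd (Subgroup.mul_mem _ (mem_inf.2 ⟨mem_sup_left hw, mem_cent1.2 (by
      rwa [mul_inv_eq_one, mul_inv_eq_iff_eq_mul] at h5)⟩) hsA) hm'
  · exact ⟨w, hw, mul_inv_eq_iff_eq_mul.1 h5⟩

/-- `J` is a 2-component of `C(z)` with unique involution `z`, of a suitable type. -/
structure Nc (J : Subgroup G) (z : G) : Prop where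
  pc : PCmp 2 J 𝐂[z]
  mem : z ∈ J
  ord : orderOf z = 2
  uq : ∀ s ∈ J, s * s = 1 → s = 1 ∨ s = z
  cen : ∀ a ∈ J, Tw a → a ∈ DD 2 𝐂[z] J → a * a = 1
  cj : ∀ a ∈ J, ∀ b ∈ J, a * a = z → b * b = z → ∃ c ∈ J, c * a * c⁻¹ = b ∨ c * a * c⁻¹ = b⁻¹

namespace Nc

theorem of_ty (hc : PCmp 2 J 𝐂[z]) (hm : z ∈ J) (ho : orderOf z = 2)
    (hu : ∀ t ∈ J, orderOf t = 2 → t = z) (h : Ty (J ⧸ oddCore J)) : Nc J z := by
  have z2 : z * z = 1 := by rw [← sq]; exact sq_eq_one ho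
  have hk : ∀ x : J, QuotientGroup.mk' (oddCore J) x = 1 ↔ x.1 ∈ Od J := fun x => by
    rw [QuotientGroup.mk'_apply, QuotientGroup.eq_one_iff, Od, pcore_p'_eq]
    exact (mem_map_iff_mem (subtype_injective _)).symm
  have hz : ∀ x : J, x.1 ∈ DD 2 𝐂[z] J → QuotientGroup.mk' (oddCore J) x ∈ center _ := fun x hx =>
    mem_center_iff.2 fun g => by
      obtain ⟨g, rfl⟩ := QuotientGroup.mk'_surjective _ g
      rw [← mul_inv_eq_one, mul_inv_rev, ← map_inv, ← map_inv, ← map_mul, ← map_mul, ← map_mul, hk]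
      simpa only [coe_mul, coe_inv, mul_assoc] using hc.DD_comm' (comm_mem_comm g.2 hx)
  have hT : ∀ a, a * a = z → Tw a := fun a ha => by
    refine IsPGroup.of_card_dvd_pow (n := 2) ?_
    rw [Nat.card_zpowers, orderOf_dvd_iff_pow_eq_one, show a ^ 2 ^ 2 = (a * a) * (a * a) by
      rw [show 2 ^ 2 = 2 + 2 from rfl, pow_add, _root_.sq], ha, z2]
  refine ⟨hc, hm, ho, fun s hs h1 => ?_, fun a ha h1 h2 => ?_, fun a ha b hb h1 h2 => ?_⟩
  · by_cases e : s = 1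
    exacts [Or.inl e, Or.inr (hu s hs (orderOf_eq_prime (by rw [sq, h1]) e))]
  · have := h.1 _ (hz ⟨a, ha⟩ h2)
    rw [← map_mul, hk] at this
    exact tw_eq_one (tw_mul h1 h1 rfl) (odd_of_mem_Od this)
  · have hzD : z ∈ DD 2 𝐂[z] J := zpowers_le.1 (le_DD_of_cent hc.le (zpowers_le.2 (self_mem_cent1 z))
      (cent_symm (by rw [cent_zpowers]; exact hc.le)))
    obtain ⟨c, hc'⟩ := h.2 (QuotientGroup.mk' _ ⟨a, ha⟩) (QuotientGroup.mk' _ ⟨b, hb⟩)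
      (by rw [← map_mul]; exact hz _ (by simpa only [coe_mul, h1] using hzD))
      (by rw [← map_mul, Ne, hk]; simpa only [coe_mul, h1] using inv_not_mem_Od ho)
      (by rw [← map_mul, ← map_mul]; congr 1; exact Subtype.ext (h2.trans h1.symm))
    obtain ⟨c, rfl⟩ := QuotientGroup.mk'_surjective _ c
    have key : ∀ b (hb : b ∈ J), Tw b → QuotientGroup.mk' (oddCore J) c * QuotientGroup.mk' _ ⟨a, ha⟩ *
        (QuotientGroup.mk' _ c)⁻¹ = QuotientGroup.mk' _ ⟨b, hb⟩ → ∃ d ∈ J, d * a * d⁻¹ = b :=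
      fun b hb hT' e => by
        rw [← mul_inv_eq_one, ← map_inv, ← map_inv, ← map_mul, ← map_mul, ← map_mul, hk] at e
        obtain ⟨o, ho, e'⟩ := exists_conj_of_congr (pcore_pi _ J) (tw_conj (hT a h1) c) hT'
          ((Od_nml J).norm hb) e
        exact ⟨o * c, mul_mem (Od_le J ho) c.2, by rw [← e']; group⟩
    rcases hc' with e | e
    · obtain ⟨d, hd, e⟩ := key b hb (hT b h2) e
      exact ⟨d, hd, Or.inl e⟩
    · obtain ⟨d, hd, e⟩ := key b⁻¹ (inv_mem hb) (by unfold Tw; rw [zpowers_inv]; exact hT b h2) e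
      exact ⟨d, hd, Or.inr e⟩

variable (h : Nc J z)
include h

theorem sq : z * z = 1 := by rw [← _root_.sq]; exact sq_eq_one h.ord
theorem ne : z ≠ 1 := fun e => by simpa [e] using h.ord
theorem inv : z⁻¹ = z := inv_eq_of_mul_eq_one_right h.sq
theorem comm (ha : a ∈ J) : a * z = z * a := mem_cent1.1 (h.pc.le ha)

theorem zD (hK : K ≤ 𝐂[z]) : z ∈ DD 2 𝐂[z] K :=
  zpowers_le.1 (le_DD_of_cent hK (zpowers_le.2 (self_mem_cent1 z))
    (cent_symm (by rw [cent_zpowers]; exact hK)))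

theorem conj (g : G) : Nc (g ⋆ J) (g * z * g⁻¹) where
  pc := conj_cent1 g z ▸ h.pc.conj g
  mem := ⟨z, h.mem, rfl⟩
  ord := by rw [← h.ord]; exact (MulAut.conj g).orderOf_eq z
  uq := by
    rintro _ ⟨s, hs, rfl⟩ e
    rw [← map_mul] at e
    exact (h.uq s hs ((MulAut.conj g).map_eq_one_iff.1 e)).imp (fun e => by rw [e, map_one]) fun e => by rw [e]; rfl
  cen := by
    rintro _ ⟨a, ha, rfl⟩ h1 h2
    rw [← conj_cent1, ← conj_DD h.pc.le] at h2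
    rw [← map_mul, h.cen a ha (by simpa [mul_assoc] using tw_conj h1 g⁻¹)
      ((mem_map_iff_mem (MulAut.conj g).injective).1 h2), map_one]
  cj := by
    rintro _ ⟨a, ha, rfl⟩ _ ⟨b, hb, rfl⟩ h1 h2
    rw [← map_mul] at h1 h2
    obtain ⟨c, hc, e⟩ := h.cj a ha b hb ((MulAut.conj g).injective h1) ((MulAut.conj g).injective h2)
    refine ⟨_, ⟨c, hc, rfl⟩, ?_⟩
    rw [← map_inv, ← map_inv, ← map_mul, ← map_mul]
    exact e.imp (fun e => by rw [e]) fun e => by rw [e]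

theorem pow_eq (ha : a ∈ J) (hT : Tw a) (h1 : a ≠ 1) : ∃ n : ℕ, a ^ n = z := by
  obtain ⟨k, hk⟩ := exists_inv_pow hT h1
  exact ⟨_, (h.uq _ (pow_mem ha _) (by rw [← _root_.sq]; exact sq_eq_one hk)).resolve_left
    fun e => by simp [e] at hk⟩

theorem mem_of (ha : a ∈ J) (hT : Tw a) (h1 : a ≠ 1) (hK : a ∈ K) : z ∈ K := by
  obtain ⟨n, e⟩ := h.pow_eq ha hT h1
  exact e ▸ pow_mem hK n

theorem ex4 (hT : Syl 2 T 𝐂[z]) : ∃ j ∈ T, j ∈ J ∧ j * j = z := by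
  obtain ⟨a, ⟨h1, h2⟩, h3⟩ := SetLike.not_le_iff_exists.1 (h.pc.syl_not_le (syl_sn hT h.pc.sn))
  have h4 : a * a ≠ 1 := fun e => h3 (by
    rcases h.uq a h2 e with rfl | rfl
    exacts [one_mem _, h.zD h.pc.le])
  obtain ⟨n, e⟩ := h.pow_eq (mul_mem h2 h2) (tw_of_mem hT.pgroup (mul_mem h1 h1)) h4
  exact ⟨a ^ n, pow_mem h1 n, pow_mem h2 n, by rw [← e, (Commute.refl a).mul_pow]⟩

theorem exists_w (hT : Syl 2 T 𝐂[z]) (ht : t ∈ T) (hn : t ∈ 𝐍(J)) (h2 : orderOf t = 2)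
    (hD : t ∉ DD 2 𝐂[z] J) : ∃ w ∈ T ⊓ J, w * t * w⁻¹ = z * t := by
  have t2 : t * t = 1 := by rw [← _root_.sq]; exact sq_eq_one h2
  have hzt : t * z = z * t := mem_cent1.1 (hT.le ht)
  refine pw hT.pgroup inf_le_left ht (zpowers_le.1 (norm_inf (le_norm_of_le (zpowers_le.2 ht))
    (zpowers_le.2 hn))) t2 (fun s hs => h.uq s hs.2) fun hc => ?_
  obtain ⟨g, hg, e⟩ := zc h.pc (hT.le ht) hn h2 h.uq hD
  have e' : g⁻¹ * t * g = z * t := by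
    have : t = z * (g * t * g⁻¹) := by rw [e, ← mul_assoc, h.sq, one_mul]
    calc g⁻¹ * t * g = g⁻¹ * (z * (g * t * g⁻¹)) * g := by rw [← this]
      _ = g⁻¹ * (z * g) * t := by group
      _ = _ := by rw [← h.comm hg]; group
  have h3 := mem_of_sq (K := J ⊓ 𝐂[t]) (syl_sn hT h.pc.sn) (le_inf inf_le_right hc) inf_le_left hg
    (mem_normalizer_of_map_conj_le ?_) ⟨mul_mem hg hg, mem_cent1.2 ?_⟩
  · rw [mem_cent1.1 h3.2, mul_inv_cancel_right] at e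
    exact h.ne (by simpa using e)
  · rintro _ ⟨a, ha, rfl⟩
    refine ⟨conj_mem_of_norm (le_norm J hg) ha.1, mem_cent1.2 ?_⟩
    change g * a * g⁻¹ * t = t * (g * a * g⁻¹)
    calc g * a * g⁻¹ * t = g * (a * (g⁻¹ * t * g)) * g⁻¹ := by group
      _ = g * ((g⁻¹ * t * g) * a) * g⁻¹ := by
        rw [e', ← mul_assoc a, h.comm ha.1, mul_assoc z, mem_cent1.1 ha.2, mul_assoc z]
      _ = _ := by group
  · calc g * g * t = g * (g * t * g⁻¹) * g := by group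
      _ = z * (g * t * g⁻¹) * (g * g) := by rw [e, ← mul_assoc g, h.comm hg, ← e]; group
      _ = _ := by rw [e, ← mul_assoc z, h.sq, one_mul]

end Nc

end Cfsg.Lib.ClsI
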