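import Cfsg.Agent.Lib.ClsI.B

/-! Elements of order at least four of an intrinsic component normalize the others. -/

set_option autoImplicit false
set_option linter.unusedSectionVars false

namespace Cfsg.Lib.ClsI

open Subgroup Cfsg.Lib.BG Cfsg.Lib.Core Cfsg.Lib.Comp Cfsg.Lib.GW Cfsg.Lib.CT
open scoped Cfsg.Lib.Transfer commutatorElement

theorem endg {Γ : Type*} [Group Γ] {A : Subgroup Γ} {x j y ζ : Γ}
    (hA : ∀ a ∈ A, ∀ b ∈ A, a * (y * b * y⁻¹) = y * b * y⁻¹ * a) (hx : x ∈ A) (hj : j ∈ A)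
    (hζ : ∀ g, ζ * g = g * ζ) (ht : y * y = x * (y * x * y⁻¹) * ζ)
    (hw : j * x * j⁻¹ * x * (j * x * j⁻¹)⁻¹ = x⁻¹) :
    j * (y * j * y⁻¹) * (y * y) * (j * (y * j * y⁻¹))⁻¹ =
      j * x * j⁻¹ * (y * (j * x * j⁻¹) * y⁻¹) * ζ ∧
    (j * (y * j * y⁻¹))⁻¹ * (y * y) * (j * (y * j * y⁻¹)) * y *
      ((j * (y * j * y⁻¹))⁻¹ * (y * y) * (j * (y * j * y⁻¹)))⁻¹ * y⁻¹ = j⁻¹ * (x * x) * j := by
  have hw1 : j⁻¹ * x * j ∈ A := mul_mem (mul_mem (inv_mem hj) hx) hj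
  constructor
  · calc _ = j * (y * j * y⁻¹ * x) * (y * x * y⁻¹) * (ζ * ((y * j * y⁻¹)⁻¹ * j⁻¹)) := by rw [ht]; group
      _ = j * x * (y * (j * x * j⁻¹) * y⁻¹ * j⁻¹) * ζ := by rw [← hA x hx j hj, hζ]; group
      _ = _ := by rw [← hA _ (inv_mem hj) _ (mul_mem (mul_mem hj hx) (inv_mem hj))]; group
  have e1 : (j * (y * j * y⁻¹))⁻¹ * (y * y) * (j * (y * j * y⁻¹)) =
      j⁻¹ * x * j * (y * (j⁻¹ * x * j) * y⁻¹) * ζ := by
    calc _ = (y * j * y⁻¹)⁻¹ * j⁻¹ * x * (y * x * y⁻¹ * j) * (j⁻¹ * (ζ * (j * (y * j * y⁻¹)))) := by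
          rw [ht]; group
      _ = (y * j⁻¹ * y⁻¹ * (j⁻¹ * x * j)) * (y * x * y⁻¹) * (y * j * y⁻¹) * ζ := by
          rw [← hA j hj x hx, hζ]; group
      _ = _ := by rw [← hA _ hw1 _ (inv_mem hj)]; group
  have e2 : x * (j⁻¹ * x * j)⁻¹ * x⁻¹ = j⁻¹ * x * j := by
    calc _ = j⁻¹ * (j * x * j⁻¹ * x * (j * x * j⁻¹)⁻¹)⁻¹ * j := by group
      _ = _ := by rw [hw, inv_inv]
  rw [e1, show j⁻¹ * (x * x) * j = j⁻¹ * x * j * (j⁻¹ * x * j) by group]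
  generalize j⁻¹ * x * j = v at e2 hw1
  have e3 : y * y * v⁻¹ * (y * y)⁻¹ = v := by
    calc _ = x * (y * x * y⁻¹) * (ζ * v⁻¹) * ζ⁻¹ * (y * x * y⁻¹)⁻¹ * x⁻¹ := by rw [ht]; group
      _ = x * (y * x * y⁻¹ * v⁻¹) * (y * x * y⁻¹)⁻¹ * x⁻¹ := by rw [hζ]; group
      _ = x * v⁻¹ * x⁻¹ := by rw [← hA _ (inv_mem hw1) x hx]; group
      _ = v := e2
  calc _ = v * (y * v * y⁻¹) * (ζ * y) * ζ⁻¹ * (y * v * y⁻¹)⁻¹ * v⁻¹ * y⁻¹ := by group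
    _ = v * (y * v * y⁻¹ * (y * y * v⁻¹ * (y * y)⁻¹)) * (y * v * y⁻¹)⁻¹ := by rw [hζ]; group
    _ = _ := by rw [e3, ← hA v hw1 v hw1]; group

variable {G : Type*} [Group G] [Finite G] {H I J K M N P R T : Subgroup G} {a b g j s t u w x y z : G}

theorem Nc.dd_conj (h : Nc J z) (hg : g ∈ 𝐂[z]) (hn : g ∉ 𝐍(J)) (ha : a ∈ J) :
    g * a * g⁻¹ ∈ DD 2 𝐂[z] J :=
  h.pc.le_DD_of_ne (h.pc.conj_mem hg) (fun e => hn (norm_of_conj_eq e.symm)) ⟨a, ha, rfl⟩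

theorem Nc.not_dd (h : Nc J z) (hj : j ∈ J) (hT : Tw j) (e : j * j = z) : j ∉ DD 2 𝐂[z] J :=
  fun h1 => h.ne (e ▸ h.cen j hj hT h1)

theorem Nc.conj' (h : Nc J z) (e : g * z * g⁻¹ = s) : Nc (g ⋆ J) s := e ▸ h.conj g

theorem lam_le (hI : PCmp 2 I (𝐂[z] ⊓ 𝐂[t])) (hz : orderOf z = 2) (hc : z * t = t * z) :
    I ≤ 𝐋(2, 𝐂[t]) :=
  (inf_comm 𝐂[z] 𝐂[t] ▸ hI).le_pLayer.trans (l_bal_inv hz (mem_cent1.2 hc))

/-- A counterexample to the normalizing property. -/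
structure Cx (J K T : Subgroup G) (z t y : G) : Prop where
  hJ : Nc J z
  hK : Nc K t
  yK : y ∈ K
  yT : y ∈ T
  syl : Syl 2 T 𝐂[z]
  y2 : y * y ≠ 1
  yn : y ∉ 𝐍(J)

namespace Cx

variable (h : Cx J K T z t y)
include h

theorem tw (ha : a ∈ T) : Tw a := tw_of_mem h.syl.pgroup ha
theorem cz (ha : a ∈ T) : a * z = z * a := mem_cent1.1 (h.syl.le ha)
theorem t_mem (hM : y * y ∈ M) : t ∈ M :=
  h.hK.mem_of (mul_mem h.yK h.yK) (h.tw (mul_mem h.yT h.yT)) h.y2 hM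
theorem tT : t ∈ T := h.t_mem (mul_mem h.yT h.yT)
theorem yt : y * t = t * y := h.hK.comm h.yK
theorem zt : z * t = t * z := (h.cz h.tT).symm
theorem zT : z ∈ T := zpowers_le.1 (h.syl.ge_of_norm_p (zpowers_le.2 (self_mem_cent1 z))
  (tw_inv2 h.hJ.sq) (norm_of_cent (by rw [cent_zpowers]; exact h.syl.le)))

theorem ne : t ≠ z := fun e => by
  subst e
  exact h.yn (h.hJ.pc.pLayer_norm (h.hK.pc.le_pLayer h.yK))

theorem zK : z ∈ 𝐍(K) := by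
  by_contra hn
  have := h.hK.dd_conj (mem_cent1.2 h.zt) hn h.yK
  rw [← h.cz h.yT, mul_inv_cancel_right] at this
  exact h.y2 (h.hK.cen y h.yK (h.tw h.yT) this)

theorem dd (ha : a ∈ J) : y * a * y⁻¹ ∈ DD 2 𝐂[z] J := h.hJ.dd_conj (h.syl.le h.yT) h.yn ha

theorem cj (hg : g ∈ T) (ha : a ∈ T) : g * a * g⁻¹ ∈ T := mul_mem (mul_mem hg ha) (inv_mem hg)

theorem cf (ha : a ∈ J) (hb : b ∈ DD 2 𝐂[z] J) (haT : a ∈ T) (hbT : b ∈ T) : a * b = b * a :=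
  ClsI.cf h.hJ.pc h.syl.pgroup ha hb haT hbT

theorem tJ : t ∈ 𝐍(J) := by
  by_contra hn
  obtain ⟨j, jT, jJ, e⟩ := h.hJ.ex4 h.syl
  have h1 := h.hJ.dd_conj (h.syl.le h.tT) hn jJ
  obtain ⟨I, hI, h2⟩ := diag h.hJ.pc (h.syl.le h.tT) h.hK.sq hn
  have h3 := h2 j jJ (h.tw jT) (h.cf jJ h1 jT (h.cj h.tT jT))
  have uT : j * (t * j * t⁻¹) ∈ T := mul_mem jT (h.cj h.tT jT)
  have h4 := h.hK.pc.pLayer_norm (lam_le hI h.hJ.ord h.zt h3)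
  have h5 := hI.le_pLayer.trans (l_bal_inv h.hK.ord (h.syl.le h.tT)) h3
  generalize hu : j * (t * j * t⁻¹) = u at h4 h5 uT
  have h6 : u * y * u⁻¹ * y⁻¹ = 1 := by
    by_contra h7
    refine hn (h.hJ.pc.pLayer_norm (h.hK.mem_of (mul_mem (conj_mem_of_norm h4 h.yK) (inv_mem h.yK))
      (h.tw (mul_mem (h.cj uT h.yT) (inv_mem h.yT))) h7 ?_))
    simpa only [mul_assoc] using mul_mem h5
      (conj_mem_of_norm ((pLayer_nml _).norm (h.syl.le h.yT)) (inv_mem h5))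
  have h7 : y * t ∉ 𝐍(J) := fun h8 => hn (h.t_mem (by
    have := mul_mem h8 h8
    rwa [show y * t * (y * t) = y * y * (t * t) by rw [mul_assoc, ← mul_assoc t, ← h.yt]; group,
      h.hK.sq, mul_one] at this))
  have h8 := mul_mem (mul_mem (h.dd jJ) (h.hJ.dd_conj (h.syl.le (mul_mem h.yT h.tT)) h7 jJ))
    (inv_mem h1)
  refine h.hJ.not_dd jJ (h.tw jT) e ?_
  convert h8 using 1
  rw [mul_inv_eq_one, mul_inv_eq_iff_eq_mul] at h6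
  calc j = u * y * y⁻¹ * (t * j * t⁻¹)⁻¹ := by rw [← hu]; group
    _ = _ := by rw [h6, ← hu]; group

theorem tD : t ∉ DD 2 𝐂[z] J := fun hD => by
  obtain ⟨j, jT, jJ, e⟩ := h.hJ.ex4 h.syl
  obtain ⟨I, hI, h2⟩ := cov h.hJ.pc hD h.hK.sq
  have h3 := h2 j jJ (h.tw jT) (mem_cent1.2 (h.cf jJ hD jT h.tT))
  have h4 := h.hK.pc.pLayer_norm (lam_le hI h.hJ.ord h.zt h3)
  have h5 := h.dd (inv_mem jJ)
  have h6 := h.cf jJ h5 jT (h.cj h.yT (inv_mem jT))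
  have h7 : j * (y * j⁻¹ * y⁻¹) ∈ DD 2 𝐂[z] J := by
    rcases h.hK.uq (j * (y * j⁻¹ * y⁻¹)) (by
      simpa only [mul_assoc] using mul_mem (conj_mem_of_norm h4 h.yK) (inv_mem h.yK)) (by
      calc _ = j * (y * j⁻¹ * y⁻¹ * j) * (y * j⁻¹ * y⁻¹) := by group
        _ = j * j * y * (j * j)⁻¹ * y⁻¹ := by rw [← h6]; group
        _ = 1 := by rw [e, ← h.cz h.yT]; group) with e' | e' <;> rw [e']
    exacts [one_mem _, hD]
  exact h.hJ.not_dd jJ (h.tw jT) e (by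
    have := mul_mem h7 (inv_mem h5)
    rwa [mul_inv_cancel_right] at this)

section W
variable (hw : w ∈ T ∧ w ∈ J) (e : w * t * w⁻¹ = z * t)
include hw e

theorem w_nc : w * t ≠ t * w := fun e' => h.hJ.ne (by
  rw [e', mul_inv_cancel_right] at e
  simpa using e)

theorem w_nd : w ∉ DD 2 𝐂[z] J := fun h1 => h.w_nc hw e (by
  rcases h.hJ.uq w hw.2 (h.hJ.cen w hw.2 (h.tw hw.1) h1) with e' | e' <;> rw [e']
  exacts [by simp, h.zt])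

theorem gt : w * (y * w * y⁻¹) * t * (w * (y * w * y⁻¹))⁻¹ = t := by
  calc _ = w * y * w * (y⁻¹ * (t * y)) * w⁻¹ * y⁻¹ * w⁻¹ := by group
    _ = w * y * (w * t * w⁻¹) * y⁻¹ * w⁻¹ := by rw [← h.yt]; group
    _ = w * (y * z) * (t * y⁻¹) * w⁻¹ := by rw [e]; group
    _ = (w * z) * (y * t) * y⁻¹ * w⁻¹ := by rw [h.cz h.yT]; group
    _ = z * (w * t * w⁻¹) := by rw [h.cz hw.1, h.yt]; group
    _ = t := by rw [e, ← mul_assoc, h.hJ.sq, one_mul]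

theorem gy : w * (y * w * y⁻¹) * y * (w * (y * w * y⁻¹))⁻¹ * y⁻¹ =
    w * (y * y * w * (y * y)⁻¹)⁻¹ := by
  have h1 := h.cf hw.2 (h.dd hw.2) hw.1 (h.cj h.yT hw.1)
  calc _ = w * y * (w * (w * (y * w * y⁻¹))⁻¹) * y⁻¹ := by group
    _ = _ := by rw [h1]; simp [mul_assoc]

theorem j_ne : w * (y * y * w * (y * y)⁻¹)⁻¹ ≠ 1 := fun e' => h.w_nc hw e (by
  rw [mul_inv_eq_one, eq_mul_inv_iff_mul_eq] at e'
  exact (mem_cent1.1 (h.t_mem (M := 𝐂[w]) (mem_cent1.2 e'.symm))).symm)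

theorem gn : w * (y * w * y⁻¹) ∉ 𝐍(K) := fun hg => by
  have yyT := mul_mem h.yT h.yT
  have jT := mul_mem hw.1 (inv_mem (h.cj yyT hw.1))
  have jK : w * (y * y * w * (y * y)⁻¹)⁻¹ ∈ K :=
    h.gy hw e ▸ mul_mem (conj_mem_of_norm hg h.yK) (inv_mem h.yK)
  by_cases h1 : y * y ∈ 𝐍(J)
  · rcases h.hJ.uq t (h.hK.mem_of jK (h.tw jT) (h.j_ne hw e)
      (mul_mem hw.2 (inv_mem (conj_mem_of_norm h1 hw.2)))) h.hK.sq with e' | e'
    exacts [h.hK.ne e', h.ne e']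
  · have h2 := h.cf hw.2 (h.hJ.dd_conj (h.syl.le yyT) h1 hw.2) hw.1 (h.cj yyT hw.1)
    exact h.w_nc hw e (mem_cent1.1 (h.hK.mem_of jK (h.tw jT) (h.j_ne hw e)
      (mul_mem (self_mem_cent1 w) (inv_mem (mem_cent1.2 h2.symm))))).symm

theorem ph1 : w * (y * w * y⁻¹) * y * (w * (y * w * y⁻¹))⁻¹ = z * y ∧ y * y = t := by
  have yyT := mul_mem h.yT h.yT
  have jT := mul_mem hw.1 (inv_mem (h.cj yyT hw.1))
  have gT := mul_mem hw.1 (h.cj h.yT hw.1)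
  have gc : w * (y * w * y⁻¹) ∈ 𝐂[t] := mem_cent1.2 (mul_inv_eq_iff_eq_mul.1 (h.gt hw e))
  have h1 := h.hK.dd_conj gc (h.gn hw e) h.yK
  have h2 := ClsI.cf h.hK.pc h.syl.pgroup h.yK h1 h.yT (h.cj gT h.yT)
  have h3 := h.gy hw e
  have h4 := h.j_ne hw e
  generalize hj : w * (y * y * w * (y * y)⁻¹)⁻¹ = j at jT h3 h4
  generalize w * (y * w * y⁻¹) = g at gT gc h1 h2 h3 ⊢
  rw [mul_inv_eq_iff_eq_mul] at h3
  rw [h3, ← mul_assoc, mul_left_inj] at h2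
  have h5 : y * j * y⁻¹ = j := by rw [h2]; group
  have h6 : y * y ∈ 𝐍(J) := by
    by_contra h6
    have h7 : y * (y * y) ∉ 𝐍(J) := fun h7 => h.yn (zpowers_le.2 (show y ^ (3 : ℤ) ∈ 𝐍(J) by
      rwa [show y ^ (3 : ℤ) = y * (y * y) by rw [zpow_ofNat, pow_three]]) (mem_zpowers_odd (h.tw h.yT) (by decide)))
    have h8 := mul_mem (mul_mem (h.dd hw.2) (inv_mem (h.hJ.dd_conj (h.syl.le (mul_mem h.yT yyT)) h7 hw.2)))
      (h.hJ.dd_conj (h.syl.le yyT) h6 hw.2)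
    refine h.w_nd hw e ?_
    convert h8 using 1
    calc w = j * (y * y * w * (y * y)⁻¹) := by rw [← hj]; group
      _ = _ := by rw [← h5, ← hj]; group
  have jJ : j ∈ J := hj ▸ mul_mem hw.2 (inv_mem (conj_mem_of_norm h6 hw.2))
  have h7 : j = z := (h.hJ.uq j jJ (h.hJ.cen j jJ (h.tw jT) (h5 ▸ h.dd jJ))).resolve_left h4
  rw [h7] at h3
  refine ⟨h3, (h.hK.uq _ (mul_mem h.yK h.yK) (h.hK.cen _ (mul_mem h.yK h.yK) (h.tw yyT) ?_)).resolve_left h.y2⟩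
  have h8 := mul_mem h1 h1
  rwa [h3, show z * y * (z * y) = z * z * (y * y) by rw [mul_assoc, ← mul_assoc y, h.cz h.yT]; group,
    h.hJ.sq, one_mul] at h8

theorem ph2 : t ∈ J ⊔ y ⋆ J := by
  obtain ⟨h1, h2⟩ := h.ph1 hw e
  have h3 := h.gt hw e
  have h4 := h.hK.dd_conj (mem_cent1.2 (mul_inv_eq_iff_eq_mul.1 h3)) (h.gn hw e) h.yK
  generalize w * (y * w * y⁻¹) = g at h1 h3 h4
  obtain ⟨v, hv, e2⟩ := zc h.hK.pc (mem_cent1.2 h.zt) h.zK h.hJ.ord h.hK.uq fun h5 =>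
    h.hK.not_dd h.yK (h.tw h.yT) h2 (by simpa [h1] using mul_mem (inv_mem h5) h4)
  have e3 : v⁻¹ * (z * t) * v = z := by rw [h.zt, ← e2]; group
  have e4 : v⁻¹ * w * t * (v⁻¹ * w)⁻¹ = z := by rw [← e3, ← e]; group
  have e5 : v⁻¹ * w * z * (v⁻¹ * w)⁻¹ = t * z := by
    calc _ = v⁻¹ * (w * z) * w⁻¹ * v := by group
      _ = v⁻¹ * (z * (t * t)) * v := by rw [h.cz hw.1, h.hK.sq]; group
      _ = v⁻¹ * (z * t) * v * (v⁻¹ * (t * v)) := by group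
      _ = _ := by rw [e3, ← h.hK.comm hv, ← h.zt]; group
  generalize v⁻¹ * w = c at e4 e5
  have n1 := h.hK.conj' e4
  have n2 : Nc ((c * g) ⋆ K) z := h.hK.conj' (by rw [← e4]; nth_rw 2 [← h3]; group)
  have m1 : c * y * c⁻¹ ∈ c ⋆ K := ⟨y, h.yK, rfl⟩
  have m2 : c * g * y * (c * g)⁻¹ ∈ (c * g) ⋆ K := ⟨y, h.yK, rfl⟩
  have e6 : t = c * g * y * (c * g)⁻¹ * ((c * y * c⁻¹)⁻¹ * z) := by
    calc t = t * z * z := by rw [mul_assoc, h.hJ.sq, mul_one]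
      _ = c * (z * y) * c⁻¹ * ((c * y * c⁻¹)⁻¹ * z) := by rw [← e5]; group
      _ = _ := by rw [← h1]; group
  have key : ∀ M, PCmp 2 M 𝐂[z] → t ∉ DD 2 𝐂[z] M → M = c ⋆ K ∨ M = (c * g) ⋆ K := fun M hM hD => by
    by_contra hne
    push Not at hne
    exact hD (e6 ▸ mul_mem (hM.le_DD_of_ne n2.pc hne.2 m2)
      (hM.le_DD_of_ne n1.pc hne.1 (mul_mem (inv_mem m1) n1.mem)))
  have h5 : t ∈ c ⋆ K ⊔ (c * g) ⋆ K :=
    e6 ▸ mul_mem (mem_sup_right m2) (mem_sup_left (mul_mem (inv_mem m1) n1.mem))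
  have h6 : J ≠ y ⋆ J := fun e' => h.yn (norm_of_conj_eq e'.symm)
  have h7 : t ∉ DD 2 𝐂[z] (y ⋆ J) := fun h7 => h.tD (by
    rw [← conj_eq_of_mem (h.syl.le h.yT), ← conj_DD h.hJ.pc.le, Transfer.mem_conj, mul_assoc, ← h.yt, inv_mul_cancel_left] at h7
    exact h7)
  rcases key J h.hJ.pc h.tD with e7 | e7 <;>
    rcases key _ (h.hJ.pc.conj_mem (h.syl.le h.yT)) h7 with e8 | e8
  · exact absurd (e7.trans e8.symm) h6
  · rwa [e8, e7]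
  · rwa [e8, e7, sup_comm]
  · exact absurd (e7.trans e8.symm) h6

theorem ph3 : ∃ x ∈ T ⊓ J, ∃ ζ, (ζ = 1 ∨ ζ = z) ∧ x * x = z ∧ t = x * (y * x * y⁻¹) * ζ ∧
    w * x * w⁻¹ = x⁻¹ := by
  have hJ2 := h.hJ.pc.conj_mem (h.syl.le h.yT)
  have h6 : J ≠ y ⋆ J := fun e' => h.yn (norm_of_conj_eq e'.symm)
  have hD := h.hJ.pc.le_DD_of_ne hJ2 h6
  have h1 := h.ph2 hw e
  have h2 := syl_inf_sup (syl_sn h.syl (sn_of_nml (pLayer_nml _))) h.hJ.pc.nml_pLayer hJ2.nml_pLayer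
    ⟨⟨h.tT, sup_le h.hJ.pc.le_pLayer hJ2.le_pLayer h1⟩, h1⟩
  have h3 : T ⊓ 𝐋(2, 𝐂[z]) ⊓ y ⋆ J ≤ 𝐂(T ⊓ 𝐋(2, 𝐂[z]) ⊓ J) := le_cent_iff.2
    fun a ha b hb => (h.cf hb.2 (hD ha.2) hb.1.1 ha.1.1).symm
  obtain ⟨x, hx, b, hb, e1⟩ := (mem_sup_left_norm (norm_of_cent h3)).1 h2
  simp only [mem_inf] at hx hb
  obtain ⟨⟨xT, -⟩, xJ⟩ := hx
  obtain ⟨⟨bT, -⟩, hb⟩ := hb
  have c1 := h.cf xJ (hD hb) xT bT
  have e2 : x * x = (b * b)⁻¹ := by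
    rw [eq_inv_iff_mul_eq_one, ← h.hK.sq, ← e1, mul_assoc, mul_assoc, ← mul_assoc b x, ← c1, mul_assoc]
  have xx : x * x = z := by
    refine (h.hJ.uq _ (mul_mem xJ xJ) (h.hJ.cen _ (mul_mem xJ xJ) (h.tw (mul_mem xT xT))
      (e2 ▸ inv_mem (hD (mul_mem hb hb))))).resolve_left fun e3 => h.tD ?_
    rw [← e1]
    refine mul_mem ?_ (hD hb)
    rcases h.hJ.uq x xJ e3 with e4 | e4 <;> rw [e4]
    exacts [one_mem _, h.hJ.zD h.hJ.pc.le]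
  have b' : y * b * y⁻¹ ∈ J := by
    obtain ⟨a, ha, rfl⟩ := hb
    have := conj_mem_of_norm h.tJ ha
    rw [← (h.ph1 hw e).2] at this
    simpa [mul_assoc] using this
  have c2 := h.cf b' (h.dd xJ) (h.cj h.yT bT) (h.cj h.yT xT)
  have e3 : (y * b * y⁻¹)⁻¹ * x = y * x * y⁻¹ * b⁻¹ := by
    have e4 : x * b = y * b * y⁻¹ * (y * x * y⁻¹) := by
      rw [c2]
      calc x * b = y * t * y⁻¹ := by rw [e1, h.yt, mul_inv_cancel_right]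
        _ = _ := by rw [← e1]; group
    calc _ = (y * b * y⁻¹)⁻¹ * (x * b) * b⁻¹ := by group
      _ = _ := by rw [e4]; group
  have zJ := mul_mem (inv_mem b') xJ
  have e4 := h.hJ.uq _ zJ (h.hJ.cen _ zJ (h.tw (mul_mem (inv_mem (h.cj h.yT bT)) xT))
    (e3 ▸ mul_mem (h.dd xJ) (inv_mem (hD hb))))
  rw [e3] at e4
  have c3 := h.cf hw.2 (hD hb) hw.1 bT
  refine ⟨x, ⟨xT, xJ⟩, (y * x * y⁻¹)⁻¹ * b, ?_, xx, by rw [← e1]; group, ?_⟩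
  · refine e4.imp (fun e5 => by rw [mul_inv_eq_one.1 e5, inv_mul_cancel]) fun e5 => ?_
    rw [mul_inv_eq_iff_eq_mul.1 e5, ← h.cz bT, mul_inv_rev, h.hJ.inv]
    group
  · calc _ = w * x * (w⁻¹ * (w * b)) * w⁻¹ * (w * b⁻¹ * w⁻¹) := by group
      _ = w * t * w⁻¹ * (w * (w * b)⁻¹) := by rw [← e1]; group
      _ = z * x := by rw [e, c3, ← e1]; group
      _ = x⁻¹ := by rw [eq_inv_iff_mul_eq_one, mul_assoc, xx, h.hJ.sq]

theorem ww (hx : x ∈ J) (xx : x * x = z) (e1 : w * x * w⁻¹ = x⁻¹) : w * w = z := by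
  have hn : w * x ≠ x * w := fun e2 => h.hJ.ne (by
    rw [e2, mul_inv_cancel_right] at e1
    rw [← xx]; nth_rw 1 [e1]; group)
  have c1 : Commute (w * w) x := by
    calc w * w * x = w * (w * x * w⁻¹) * w := by group
      _ = w * x⁻¹ * w := by rw [e1]
      _ = (w * x * w⁻¹)⁻¹ * (w * w) := by group
      _ = _ := by rw [e1, inv_inv]
  have h1 : w * w ≠ 1 := fun e2 => hn (by
    rcases h.hJ.uq w hw.2 e2 with e3 | e3 <;> rw [e3]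
    exacts [by simp, (h.hJ.comm hx).symm])
  by_cases h2 : w * w * (w * w) = 1
  · exact (h.hJ.uq _ (mul_mem hw.2 hw.2) h2).resolve_left h1
  obtain ⟨n, e2⟩ := h.hJ.pow_eq (mul_mem (mul_mem hw.2 hw.2) (mul_mem hw.2 hw.2))
    (h.tw (mul_mem (mul_mem hw.1 hw.1) (mul_mem hw.1 hw.1))) h2
  rw [(Commute.refl _).mul_pow] at e2
  have c2 : Commute w ((w * w) ^ n) := ((Commute.refl w).mul_right (Commute.refl w)).pow_right n
  have c3 := c1.pow_left n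
  have h3 := pow_mem (mul_mem hw.2 hw.2) n
  generalize (w * w) ^ n = u at e2 c2 c3 h3
  have h4 : Commute w (x * u) := by
    rcases h.hJ.uq _ (mul_mem hx h3) (by
      rw [mul_assoc, ← mul_assoc u, c3.eq, mul_assoc, ← mul_assoc, xx, e2, h.hJ.sq]) with e3 | e3 <;>
      rw [e3]
    exacts [Commute.one_right w, h.hJ.comm hw.2]
  exact absurd (by simpa [Commute, SemiconjBy] using h4.mul_right c2.inv_right) hn

theorem fin : False := by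
  obtain ⟨x, ⟨xT, xJ⟩, ζ, hζ, xx, e1, e2⟩ := h.ph3 hw e
  have ww := h.ww hw e xJ xx e2
  obtain ⟨j, jJ, e3⟩ : ∃ j ∈ J, j * x * j⁻¹ = w := by
    obtain ⟨c, hc, e3 | e3⟩ := h.hJ.cj x xJ w hw.2 xx ww
    · exact ⟨c, hc, e3⟩
    · refine ⟨c * w, mul_mem hc hw.2, ?_⟩
      calc _ = c * (w * x * w⁻¹) * c⁻¹ := by group
        _ = (c * x * c⁻¹)⁻¹ := by rw [e2]; group
        _ = w := by rw [e3, inv_inv]
  obtain ⟨h1, h2⟩ := h.ph1 hw e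
  have hn : 𝐂[z] ≤ 𝐍(Od 𝐂[z]) := (Od_nml _).norm
  have hJn : J ≤ 𝐍(Od 𝐂[z]) := h.hJ.pc.le.trans hn
  have yc := h.syl.le h.yT
  have ζT : ζ ∈ T := by rcases hζ with rfl | rfl; exacts [one_mem _, h.zT]
  have ζc : ∀ g ∈ 𝐂[z], ζ * g = g * ζ := fun g hg => by
    rcases hζ with rfl | rfl; exacts [by simp, (mem_cent1.1 hg).symm]
  have := (Od_nml 𝐂[z]).normal
  let f := QuotientGroup.mk' ((Od 𝐂[z]).subgroupOf 𝐂[z])
  have hf : ∀ a b : 𝐂[z], f a = f b ↔ (a : G) * (b : G)⁻¹ ∈ Od 𝐂[z] := fun a b => by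
    rw [← mul_inv_eq_one, ← map_inv, ← map_mul, ← MonoidHom.mem_ker, QuotientGroup.ker_mk']
    rfl
  obtain ⟨k1, k2⟩ := endg (A := (J.subgroupOf 𝐂[z]).map f) (x := f ⟨x, h.syl.le xT⟩)
    (j := f ⟨j, h.hJ.pc.le jJ⟩) (y := f ⟨y, yc⟩) (ζ := f ⟨ζ, h.syl.le ζT⟩) (by
      rintro _ ⟨a, ha, rfl⟩ _ ⟨b, hb, rfl⟩
      simp only [← map_inv, ← map_mul, hf]
      simpa [mul_assoc] using DD_comm h.hJ.pc.le (comm_mem_comm ha (h.dd hb)))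
    ⟨_, xJ, rfl⟩ ⟨_, jJ, rfl⟩ (fun g => by
      obtain ⟨g, rfl⟩ := QuotientGroup.mk'_surjective _ g
      rw [← map_mul, ← map_mul]; congr 1; exact Subtype.ext (ζc g g.2))
    (by simp only [← map_inv, ← map_mul]; congr 1; exact Subtype.ext (h2.trans e1))
    (by simp only [← map_inv, ← map_mul]; congr 1; refine Subtype.ext ?_
        change j * x * j⁻¹ * x * (j * x * j⁻¹)⁻¹ = x⁻¹
        rw [e3, e2])
  have cc : j * (y * j * y⁻¹) ∈ 𝐂[z] :=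
    mul_mem (h.hJ.pc.le jJ) (conj_mem_of_norm (le_norm _ yc) (h.hJ.pc.le jJ))
  have hc0 : f ⟨j, h.hJ.pc.le jJ⟩ * (f ⟨y, yc⟩ * f ⟨j, h.hJ.pc.le jJ⟩ * (f ⟨y, yc⟩)⁻¹) = f ⟨_, cc⟩ := by
    simp only [← map_inv, ← map_mul]; rfl
  rw [hc0] at k1 k2
  simp only [← map_inv, ← map_mul, hf] at k1
  change j * (y * j * y⁻¹) * (y * y) * (j * (y * j * y⁻¹))⁻¹ *
    (j * x * j⁻¹ * (y * (j * x * j⁻¹) * y⁻¹) * ζ)⁻¹ ∈ _ at k1
  rw [e3, h2] at k1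
  have gT := mul_mem hw.1 (h.cj h.yT hw.1)
  have g1 := h.gn hw e
  have g2 := h.gt hw e
  have g3 : w * (y * w * y⁻¹) * (w * (y * w * y⁻¹)) = 1 := by
    calc _ = w * (y * w * y⁻¹ * w) * (y * w * y⁻¹) := by group
      _ = w * w * y * (w * w) * y⁻¹ := by
        rw [← h.cf hw.2 (h.dd hw.2) hw.1 (h.cj h.yT hw.1)]; group
      _ = z * (y * z) * y⁻¹ := by rw [ww]; group
      _ = 1 := by rw [h.cz h.yT, ← mul_assoc, h.hJ.sq]; group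
  generalize w * (y * w * y⁻¹) = g at k1 gT g1 g2 g3 h1
  have ζK : ζ ∈ 𝐍(K) := by rcases hζ with rfl | rfl; exacts [one_mem _, h.zK]
  have ζ2 : ζ * ζ = 1 := by rcases hζ with rfl | rfl; exacts [one_mul 1, h.hJ.sq]
  have s1 : g * ζ ∉ 𝐍(K) := fun e4 => g1 (by simpa using mul_mem e4 (inv_mem ζK))
  have sT := mul_mem gT ζT
  have s2 : g * ζ ∈ 𝐂[t] := mem_cent1.2 (by
    rw [mul_assoc, ζc t (h.syl.le h.tT), ← mul_assoc, mul_inv_eq_iff_eq_mul.1 g2, mul_assoc])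
  have s3 : g * ζ * (g * ζ) = 1 := by
    rw [mul_assoc, ← mul_assoc ζ, ζc g (h.syl.le gT), mul_assoc, ζ2, mul_one, g3]
  have s4 : g * ζ * y * (g * ζ)⁻¹ = z * y := by rw [← h1, mul_assoc g, ζc y yc]; group
  generalize g * ζ = s at k1 s1 sT s2 s3 s4
  obtain ⟨o, ho, e4⟩ := exists_conj_of_congr (pcore_pi _ _) (tw_conj (h.tw h.tT) _) (h.tw sT)
    (hn (h.syl.le sT)) k1
  have cc' := mul_mem (Od_le _ ho) cc
  have hc1 : f ⟨_, cc⟩ = f ⟨_, cc'⟩ := by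
    rw [eq_comm, hf]; simpa only [mul_inv_cancel_right] using ho
  rw [hc1] at k2
  simp only [← map_inv, ← map_mul, hf] at k2
  have e5 : o * (j * (y * j * y⁻¹)) * t * (o * (j * (y * j * y⁻¹)))⁻¹ = s := by rw [← e4]; group
  change (o * (j * (y * j * y⁻¹)))⁻¹ * (y * y) * (o * (j * (y * j * y⁻¹))) * y *
    ((o * (j * (y * j * y⁻¹)))⁻¹ * (y * y) * (o * (j * (y * j * y⁻¹))))⁻¹ * y⁻¹ *
    (j⁻¹ * (x * x) * j)⁻¹ ∈ _ at k2
  rw [h2, xx, mul_assoc j⁻¹, ← h.hJ.comm jJ, inv_mul_cancel_left] at k2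
  generalize o * (j * (y * j * y⁻¹)) = c at k2 cc' e5
  have n1 := h.hK.conj' e5
  obtain ⟨I, hI, h3⟩ := diag h.hK.pc s2 s3 s1
  have h4 := h3 y h.yK (h.tw h.yT) (by rw [s4, ← mul_assoc, h.cz h.yT])
  have h5 := n1.pc.pLayer_norm (lam_le hI h.hK.ord (mem_cent1.1 s2).symm h4)
  rw [s4, ← mul_assoc, h.cz h.yT, mul_assoc, h2, ← Transfer.conj_normalizer, Transfer.mem_conj] at h5
  have h6 : c⁻¹ * t * c ∈ 𝐍(K) := by
    have := mul_mem (inv_mem h.zK) h5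
    rwa [← mul_assoc c⁻¹, mem_cent1.1 (inv_mem cc'), mul_assoc z, mul_assoc z, inv_mul_cancel_left] at this
  have h7 := mul_mem (conj_mem_of_norm h6 h.yK) (inv_mem h.yK)
  generalize c⁻¹ * t * c * y * (c⁻¹ * t * c)⁻¹ * y⁻¹ = k at k2 h7
  have h8 : k ∈ DD 2 𝐂[z] J := by
    simpa using mul_mem (core_le_DD h.hJ.pc.le k2) (h.hJ.zD h.hJ.pc.le)
  obtain ⟨m, hm, h9⟩ := exists_odd_pow k
  refine h.tD (h.hK.mem_of (pow_mem h7 m) h9 (fun e6 => ?_) (pow_mem h8 m))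
  have kc : Commute k z := mem_cent1.1 (DD_le h8)
  have h10 := pow_mem k2 m
  obtain ⟨m, rfl⟩ := hm
  rw [kc.inv_right.mul_pow, e6, one_mul, h.hJ.inv, pow_succ, pow_mul, sq, h.hJ.sq, one_pow,
    one_mul] at h10
  exact inv_not_mem_Od h.hJ.ord h10

end W

theorem false : False := by
  obtain ⟨w, hw, e⟩ := h.hJ.exists_w h.syl h.tT h.tJ h.hK.ord h.tD
  exact h.fin hw e

end Cx

theorem norm_of (hJ : Nc J z) (hK : Nc K t) (hy : y ∈ K) (hT : Tw y) (h2 : y * y ≠ 1)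
    (hc : y * z = z * y) : y ∈ 𝐍(J) := by
  by_contra hn
  obtain ⟨T, hT, h1⟩ := Syl.exists_ge hT (zpowers_le.2 (mem_cent1.2 hc))
  exact Cx.false ⟨hJ, hK, hy, h1 (mem_zpowers y), hT, h2, hn⟩

theorem norm_of_norm (hJ : Nc J z) (hK : Nc K t) (hz : z ∈ 𝐍(K)) : t ∈ 𝐍(J) := by
  by_contra hn
  have zt : z * t = t * z := by
    rcases hK.uq _ (conj_mem_of_norm hz hK.mem) (by
      rw [show z * t * z⁻¹ * (z * t * z⁻¹) = z * (t * t) * z⁻¹ by group, hK.sq]; group) with e | e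
    · exact absurd (by simpa using e) hK.ne
    · exact mul_inv_eq_iff_eq_mul.1 e
  have tc : t ∈ 𝐂[z] := mem_cent1.2 zt.symm
  obtain ⟨T, hT, h1⟩ := Syl.exists_ge (tw_inv2 hK.sq) (zpowers_le.2 tc)
  have tT := h1 (mem_zpowers t)
  obtain ⟨j, jT, jJ, e⟩ := hJ.ex4 hT
  have j'T := mul_mem (mul_mem tT jT) (inv_mem tT)
  have h2 := hJ.dd_conj tc hn jJ
  have c1 := cf hJ.pc hT.pgroup jJ h2 jT j'T
  obtain ⟨I, hI, h3⟩ := diag hJ.pc tc hK.sq hn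
  have h4 := h3 j jJ (tw_of_mem hT.pgroup jT) c1
  have h5 : j * (t * j * t⁻¹) ∉ DD 2 𝐂[z] J := fun h5 => hJ.not_dd jJ (tw_of_mem hT.pgroup jT) e (by
    have := mul_mem h5 (inv_mem h2)
    rwa [mul_inv_cancel_right] at this)
  have ji : j⁻¹ = j * z := by rw [inv_eq_iff_mul_eq_one, ← mul_assoc, e, hJ.sq]
  have u2 : j * (t * j * t⁻¹) * (j * (t * j * t⁻¹)) = 1 := by
    calc _ = j * (t * j * t⁻¹ * j) * (t * j * t⁻¹) := by group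
      _ = j * j * t * (j * j) * t⁻¹ := by rw [← c1]; group
      _ = z * (t * z) * t⁻¹ := by rw [e]; group
      _ = 1 := by rw [← zt, ← mul_assoc, hJ.sq]; group
  have e1 : j * (t * z) * j⁻¹ = j * (t * j * t⁻¹) * t := by
    calc _ = j * t * (z * j⁻¹) := by group
      _ = _ := by rw [ji, hJ.comm jJ, ← mul_assoc z, hJ.sq]; group
  have e2 : j⁻¹ * t * j = j * (t * j * t⁻¹) * (t * z) := by
    calc _ = j * (z * t) * j := by rw [ji]; group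
      _ = j * t * (z * j) := by rw [zt]; group
      _ = _ := by rw [← hJ.comm jJ]; group
  generalize j * (t * j * t⁻¹) = u at h4 h5 u2 e1 e2
  obtain ⟨uz, ut⟩ := hI.le h4
  have h6 : u ∈ DD 2 𝐂[t] K := by
    refine ((pu (inf_comm 𝐂[z] 𝐂[t] ▸ hI) (mem_cent1.2 zt) hJ.ord hK.pc hz).resolve_left fun h6 => ?_) h4
    rcases hK.uq u (h6 h4) u2 with e3 | e3
    · exact h5 (e3 ▸ one_mem _)
    · exact hn (e3 ▸ hJ.pc.pLayer_norm (hI.le_pLayer.trans (l_bal_inv hK.ord tc) h4))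
  obtain ⟨S, hS, h7⟩ := Syl.exists_ge (pgroup_two (tw_inv2 hJ.sq) (tw_inv2 u2) (mem_cent1.1 uz).symm)
    (sup_le (zpowers_le.2 (mem_cent1.2 zt)) (zpowers_le.2 ut))
  have zS := h7 (mem_sup_left (mem_zpowers z))
  have uS := h7 (mem_sup_right (mem_zpowers u))
  by_cases h8 : S ⊓ K ≤ 𝐂[z]
  · obtain ⟨y, yS, yK, e3⟩ := hK.ex4 hS
    have := norm_of hJ hK yK (tw_of_mem hS.pgroup yS) (e3 ▸ hK.ne) (mem_cent1.1 (h8 ⟨yS, yK⟩))
    exact hn (e3 ▸ mul_mem this this)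
  obtain ⟨v, hv, e3⟩ := pw hS.pgroup inf_le_left zS (zpowers_le.1 (norm_inf
    (le_norm_of_le (zpowers_le.2 zS)) (zpowers_le.2 hz))) hJ.sq (fun s hs => hK.uq s hs.2) h8
  have c2 := cf hK.pc hS.pgroup hv.2 h6 hv.1 uS
  have n1 : Nc ((j * v) ⋆ J) (u * t) := hJ.conj' (by rw [← e1, ← e3]; group)
  obtain ⟨L, hL, h9⟩ := cov hK.pc (mul_mem h6 (hK.zD hK.pc.le)) n1.sq
  have tc' : t * (u * t) = u * t * t := by rw [← mul_assoc, mem_cent1.1 ut]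
  have h10 := h9 t hK.mem (tw_inv2 hK.sq) (mem_cent1.2 tc')
  rcases pu (inf_comm 𝐂[t] _ ▸ hL) (mem_cent1.2 tc') hK.ord n1.pc
    (n1.pc.pLayer_norm (lam_le hL hK.ord tc' h10)) with h11 | h11
  · rcases n1.uq t (h11 h10) hK.sq with e4 | e4
    · exact hK.ne e4
    · exact h5 ((by simpa using e4 : u = 1) ▸ one_mem _)
  · have h12 := h11 h10
    have e4 : u * t = j * v * z * (j * v)⁻¹ := by rw [← e1, ← e3]; group
    rw [e4, ← conj_cent1, ← conj_DD hJ.pc.le, Transfer.mem_conj] at h12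
    have e5 : (j * v)⁻¹ * t * (j * v) = u * z := by
      calc _ = v⁻¹ * (j⁻¹ * t * j) * v := by group
        _ = v⁻¹ * (u * v) * z := by rw [e2, ← e3]; group
        _ = _ := by rw [← c2]; group
    rw [e5] at h12
    exact h5 (by simpa using mul_mem h12 (inv_mem (hJ.zD hJ.pc.le)))

end Cfsg.Lib.ClsI
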